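import Mathlib
import Cfsg.Agent.Lib.Helper51.TI3.Defs

/-!
# S3117 package QS5 (helper95): `lemFive : LemOrbit → LemK → LemFive`

A `sq`-preserving automorphism `g` of order 5 of anisotropic quadratic data on `W`, `|W| ≤ 16`,
forces `|W| = 16`, `g` fixed-point-free; with `e n = g^n w` the fifteen non-identity elements are
`e i`, `e i * e (i+1)`, `e i * e (i+2)`, on which `sq` takes three distinct values, and every
`sq`-preserving automorphism is determined by the images of `e 0`, `e 1`, for which there are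
at most ten possibilities.
-/

set_option autoImplicit false

universe u v

namespace Cfsg.Agent.Lib.Helper95.TI3

open Cfsg.Agent.Lib.Helper51.TI3

/-- `sq 1 = 1` for quadratic data. -/
theorem qd_sq_one {W : Type u} {T : Type v} [Group W] [Group T] (Q : QD W T) : Q.sq 1 = 1 := by
  have hb : Q.β 1 1 = 1 := by
    have h := Q.β_mul 1 1 1
    rw [mul_one] at h
    exact left_eq_mul.mp h
  have h := Q.sq_mul 1 1
  rw [mul_one, hb, mul_one] at h
  exact left_eq_mul.mp h

/-- A group of exponent two is commutative. -/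
theorem comm_of_mul_self {W : Type u} [Group W] (hW : ∀ w : W, w * w = 1) (a b : W) :
    a * b = b * a := by
  have hinv : ∀ x : W, x⁻¹ = x := fun x => inv_eq_of_mul_eq_one_left (hW x)
  calc a * b = (a * b)⁻¹ := (hinv _).symm
    _ = b⁻¹ * a⁻¹ := mul_inv_rev a b
    _ = b * a := by rw [hinv, hinv]

section core

variable {W : Type u} [CommGroup W]

/-- the orbit points `e n = g^n w`. -/
def ee (g : MulAut W) (w : W) (n : ℕ) : W := (g ^ n) w

variable (g : MulAut W) (w : W)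

theorem ee_zero : ee g w 0 = w := by simp [ee]

theorem ee_succ (n : ℕ) : ee g w (n + 1) = g (ee g w n) := by simp [ee, pow_succ']

theorem ee_add (n k : ℕ) : ee g w (n + k) = (g ^ n) (ee g w k) := by simp [ee, pow_add]

theorem ee_mod (hg5 : g ^ 5 = 1) (n : ℕ) : ee g w n = ee g w (n % 5) := by
  unfold ee; rw [pow_eq_pow_mod n hg5]

theorem ee_congr (hg5 : g ^ 5 = 1) {a b : ℕ} (h : a % 5 = b % 5) : ee g w a = ee g w b := by
  rw [ee_mod g w hg5 a, ee_mod g w hg5 b, h]

theorem pow_fix_aux (h : MulAut W) (x : W) (hx : h x = x) (m : ℕ) : (h ^ m) x = x := by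
  induction m with
  | zero => simp
  | succ m ih => rw [pow_succ, MulAut.mul_apply, hx, ih]

theorem fix_of_pow (hg5 : g ^ 5 = 1) (hfix : ∀ x : W, g x = x → x = 1) (k : ℕ) (hk0 : 0 < k)
    (hk5 : k < 5) (x : W) (hx : (g ^ k) x = x) : x = 1 := by
  apply hfix
  obtain ⟨m, hm⟩ : ∃ m : ℕ, (g ^ k) ^ m = g := by
    have h6 : g ^ 6 = g := by rw [pow_succ, hg5, one_mul]
    have h16 : g ^ 16 = g := by
      have : g ^ 16 = (g ^ 5) ^ 3 * g := by rw [← pow_mul, ← pow_succ]
      rw [this, hg5, one_pow, one_mul]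
    interval_cases k
    · exact ⟨1, by simp⟩
    · exact ⟨3, by rw [← pow_mul]; exact h6⟩
    · exact ⟨2, by rw [← pow_mul]; exact h6⟩
    · exact ⟨4, by rw [← pow_mul]; exact h16⟩
  have := pow_fix_aux (g ^ k) x hx m
  rwa [hm] at this

theorem ee_ne_one (hw : w ≠ 1) (n : ℕ) : ee g w n ≠ 1 := by
  intro h
  apply hw
  have : (g ^ n) w = (g ^ n) 1 := by rw [map_one]; exact h
  exact (g ^ n).injective this

theorem ee_ne (hg5 : g ^ 5 = 1) (hfix : ∀ x : W, g x = x → x = 1) (hw : w ≠ 1) (a b : ℕ)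
    (hab : a < b) (hb : b < 5) : ee g w a ≠ ee g w b := by
  intro h
  have h1 : ee g w b = (g ^ a) (ee g w (b - a)) := by
    rw [← ee_add]; congr 1; omega
  have h2 : ee g w a = (g ^ a) w := rfl
  rw [h1, h2] at h
  have h3 : w = ee g w (b - a) := (g ^ a).injective h
  exact hw (fix_of_pow g hg5 hfix (b - a) (by omega) (by omega) w h3.symm)

theorem prod_range_five (hg5 : g ^ 5 = 1) (hfix : ∀ x : W, g x = x → x = 1) :
    ∏ i ∈ Finset.range 5, ee g w i = 1 := by
  apply hfix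
  rw [map_prod]
  simp only [← ee_succ]
  simp only [Finset.prod_range_succ, Finset.prod_range_zero, one_mul]
  rw [show ee g w (4 + 1) = ee g w 0 from ee_congr g w hg5 (by norm_num)]
  ac_rfl

theorem prod_ne_one_small (hg5 : g ^ 5 = 1) (hfix : ∀ x : W, g x = x → x = 1)
    (hsq : ∀ x : W, x * x = 1) (hw : w ≠ 1) (S : Finset ℕ) (hS : S ⊆ Finset.range 5)
    (hc : S.card = 1 ∨ S.card = 2) : ∏ i ∈ S, ee g w i ≠ 1 := by
  rcases hc with hc | hc
  · obtain ⟨i, rfl⟩ := Finset.card_eq_one.1 hc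
    rw [Finset.prod_singleton]
    exact ee_ne_one g w hw i
  · obtain ⟨i, j, hij, rfl⟩ := Finset.card_eq_two.1 hc
    rw [Finset.prod_pair hij]
    intro h
    have hi : i < 5 := Finset.mem_range.1 (hS (by simp))
    have hj : j < 5 := Finset.mem_range.1 (hS (by simp))
    have h' : ee g w i = ee g w j := mul_right_cancel (h.trans (hsq (ee g w j)).symm)
    rcases Nat.lt_or_gt_of_ne hij with hlt | hlt
    · exact ee_ne g w hg5 hfix hw i j hlt hj h'
    · exact ee_ne g w hg5 hfix hw j i hlt hi h'.symm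

theorem prod_eq_one_cases (hg5 : g ^ 5 = 1) (hfix : ∀ x : W, g x = x → x = 1)
    (hsq : ∀ x : W, x * x = 1) (hw : w ≠ 1) (S : Finset ℕ) (hS : S ⊆ Finset.range 5)
    (hp : ∏ i ∈ S, ee g w i = 1) : S = ∅ ∨ S = Finset.range 5 := by
  have hcard : S.card ≤ 5 := by simpa using Finset.card_le_card hS
  have hcompl : ∏ i ∈ Finset.range 5 \ S, ee g w i = 1 := by
    have := Finset.prod_sdiff (f := ee g w) hS
    rw [hp, mul_one, prod_range_five g w hg5 hfix] at this
    exact this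
  have hcc : (Finset.range 5 \ S).card = 5 - S.card := by
    rw [Finset.card_sdiff_of_subset hS]; simp
  by_cases h0 : S.card = 0
  · left; exact Finset.card_eq_zero.1 h0
  by_cases h5 : S.card = 5
  · right; exact Finset.eq_of_subset_of_card_le hS (by simp [h5])
  exfalso
  by_cases h12 : S.card = 1 ∨ S.card = 2
  · exact prod_ne_one_small g w hg5 hfix hsq hw S hS h12 hp
  · have : (Finset.range 5 \ S).card = 1 ∨ (Finset.range 5 \ S).card = 2 := by omega
    exact prod_ne_one_small g w hg5 hfix hsq hw _ Finset.sdiff_subset this hcompl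

theorem exists_small_prod [Finite W] (hg5 : g ^ 5 = 1) (hfix : ∀ x : W, g x = x → x = 1)
    (hsq : ∀ x : W, x * x = 1) (hw : w ≠ 1) (hcard : Nat.card W ≤ 16) (x : W) :
    ∃ S : Finset ℕ, S ⊆ Finset.range 5 ∧ S.card ≤ 2 ∧ ∏ i ∈ S, ee g w i = x := by
  classical
  have := Fintype.ofFinite W
  set 𝒯 : Finset (Finset ℕ) := (Finset.range 5).powerset.filter (fun S => S.card ≤ 2) with h𝒯
  have hT16 : 𝒯.card = 16 := by rw [h𝒯]; decide
  have hmem : ∀ S, S ∈ 𝒯 ↔ S ⊆ Finset.range 5 ∧ S.card ≤ 2 := by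
    intro S; simp [h𝒯]
  have hinj : Set.InjOn (fun S : Finset ℕ => ∏ i ∈ S, ee g w i) (𝒯 : Set (Finset ℕ)) := by
    intro S hS S' hS' h
    rw [Finset.mem_coe, hmem] at hS hS'
    have h' : ∏ i ∈ S, ee g w i = ∏ i ∈ S', ee g w i := h
    have h1 := Finset.prod_inter_mul_prod_sdiff S S' (ee g w)
    have h2 := Finset.prod_inter_mul_prod_sdiff S' S (ee g w)
    rw [Finset.inter_comm S' S] at h2
    have h3 : ∏ i ∈ S \ S', ee g w i = ∏ i ∈ S' \ S, ee g w i := by
      apply mul_left_cancel (a := ∏ i ∈ S ∩ S', ee g w i)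
      rw [h1, h2]; exact h'
    have hdisj : Disjoint (S \ S') (S' \ S) := disjoint_sdiff_sdiff
    have h4 : ∏ i ∈ (S \ S') ∪ (S' \ S), ee g w i = 1 := by
      rw [Finset.prod_union hdisj, h3]; exact hsq _
    have hsub : (S \ S') ∪ (S' \ S) ⊆ Finset.range 5 :=
      Finset.union_subset (Finset.sdiff_subset.trans hS.1) (Finset.sdiff_subset.trans hS'.1)
    rcases prod_eq_one_cases g w hg5 hfix hsq hw _ hsub h4 with h5 | h5
    · rw [Finset.union_eq_empty] at h5
      have a1 : S ⊆ S' := Finset.sdiff_eq_empty_iff_subset.1 h5.1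
      have a2 : S' ⊆ S := Finset.sdiff_eq_empty_iff_subset.1 h5.2
      exact Finset.Subset.antisymm a1 a2
    · exfalso
      have c1 : ((S \ S') ∪ (S' \ S)).card ≤ 4 := by
        calc ((S \ S') ∪ (S' \ S)).card ≤ (S \ S').card + (S' \ S).card :=
              Finset.card_union_le _ _
          _ ≤ S.card + S'.card :=
              Nat.add_le_add (Finset.card_le_card Finset.sdiff_subset)
                (Finset.card_le_card Finset.sdiff_subset)
          _ ≤ 4 := by omega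
      rw [h5] at c1; simp at c1
  have himg : (𝒯.image (fun S : Finset ℕ => ∏ i ∈ S, ee g w i)) = Finset.univ := by
    apply Finset.eq_univ_of_card
    have h16 : 16 ≤ Fintype.card W := by
      have := Finset.card_le_univ (𝒯.image (fun S : Finset ℕ => ∏ i ∈ S, ee g w i))
      rwa [Finset.card_image_of_injOn hinj, hT16] at this
    rw [Finset.card_image_of_injOn hinj, hT16]
    have : Fintype.card W ≤ 16 := by rwa [Nat.card_eq_fintype_card] at hcard
    omega
  have hx : x ∈ 𝒯.image (fun S : Finset ℕ => ∏ i ∈ S, ee g w i) := by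
    rw [himg]; exact Finset.mem_univ x
  obtain ⟨S, hS, rfl⟩ := Finset.mem_image.1 hx
  exact ⟨S, ((hmem S).1 hS).1, ((hmem S).1 hS).2, rfl⟩

theorem elt_cases [Finite W] (hg5 : g ^ 5 = 1) (hfix : ∀ x : W, g x = x → x = 1)
    (hsq : ∀ x : W, x * x = 1) (hw : w ≠ 1) (hcard : Nat.card W ≤ 16) (x : W) :
    x = 1 ∨ ∃ n, x = ee g w n ∨ x = ee g w n * ee g w (n + 1) ∨
      x = ee g w n * ee g w (n + 2) := by
  obtain ⟨S, hS, hc, rfl⟩ := exists_small_prod g w hg5 hfix hsq hw hcard x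
  have key : ∀ i j, i < j → j < 5 → ∃ n,
      ee g w i * ee g w j = ee g w n * ee g w (n + 1) ∨
      ee g w i * ee g w j = ee g w n * ee g w (n + 2) := by
    intro i j hij hj
    have hd : j = i + 1 ∨ j = i + 2 ∨ j = i + 3 ∨ j = i + 4 := by omega
    rcases hd with rfl | rfl | rfl | rfl
    · exact ⟨i, Or.inl rfl⟩
    · exact ⟨i, Or.inr rfl⟩
    · refine ⟨i + 3, Or.inr ?_⟩
      rw [mul_comm, ee_congr g w hg5 (a := i + 3 + 2) (b := i) (by omega)]
    · refine ⟨i + 4, Or.inl ?_⟩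
      rw [mul_comm, ee_congr g w hg5 (a := i + 4 + 1) (b := i) (by omega)]
  interval_cases h : S.card
  · left; rw [Finset.card_eq_zero.1 h]; simp
  · right
    obtain ⟨i, rfl⟩ := Finset.card_eq_one.1 h
    exact ⟨i, Or.inl (by simp)⟩
  · right
    obtain ⟨i, j, hij, rfl⟩ := Finset.card_eq_two.1 h
    rw [Finset.prod_pair hij]
    have hi : i < 5 := Finset.mem_range.1 (hS (by simp))
    have hj : j < 5 := Finset.mem_range.1 (hS (by simp))
    rcases Nat.lt_or_gt_of_ne hij with hlt | hlt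
    · obtain ⟨n, hn⟩ := key i j hlt hj
      exact ⟨n, Or.inr hn⟩
    · obtain ⟨n, hn⟩ := key j i hlt hi
      exact ⟨n, Or.inr (by rw [mul_comm]; exact hn)⟩

theorem five_core {T : Type v} [Group T] [Finite W] (hK : LemK.{u, v}) (Q : QD W T)
    (hcard : Nat.card W ≤ 16) (haniso : ∀ w : W, Q.sq w = 1 → w = 1)
    (Γ : Subgroup (MulAut W)) (hΓ : ∀ γ ∈ Γ, ∀ w, Q.sq (γ w) = Q.sq w)
    (hgΓ : g ∈ Γ) (hg5 : g ^ 5 = 1) (hfix : ∀ x : W, g x = x → x = 1) (hw : w ≠ 1) :
    Nat.card Γ ≤ 10 := by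
  classical
  have hsq : ∀ x : W, x * x = 1 := Q.hW
  have hne := ee_ne g w hg5 hfix hw
  have hcases := elt_cases g w hg5 hfix hsq hw hcard
  have hper : ∀ {a b : ℕ}, a % 5 = b % 5 → ee g w a = ee g w b := fun h => ee_congr g w hg5 h
  have hpow : ∀ (n : ℕ) (x : W), Q.sq ((g ^ n) x) = Q.sq x :=
    fun n x => hΓ _ (Γ.pow_mem hgΓ n) x
  obtain ⟨s₁, hs₁⟩ : ∃ s, Q.sq w = s := ⟨_, rfl⟩
  obtain ⟨s₂, hs₂⟩ : ∃ s, Q.sq (ee g w 0 * ee g w 1) = s := ⟨_, rfl⟩
  obtain ⟨s₃, hs₃⟩ : ∃ s, Q.sq (ee g w 0 * ee g w 2) = s := ⟨_, rfl⟩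
  have V1 : ∀ n, Q.sq (ee g w n) = s₁ := fun n => (hpow n w).trans hs₁
  have V2 : ∀ n k, Q.sq (ee g w n * ee g w (n + k)) = Q.sq (ee g w 0 * ee g w k) := by
    intro n k
    have : ee g w n * ee g w (n + k) = (g ^ n) (ee g w 0 * ee g w k) := by
      rw [map_mul, ← ee_add, ← ee_add, add_zero]
    rw [this, hpow]
  have V2a : ∀ n, Q.sq (ee g w n * ee g w (n + 1)) = s₂ := fun n => (V2 n 1).trans hs₂
  have V2b : ∀ n, Q.sq (ee g w n * ee g w (n + 2)) = s₃ := fun n => (V2 n 2).trans hs₃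
  have mul_ne_one : ∀ a b, a < b → b < 5 → ee g w a * ee g w b ≠ 1 := by
    intro a b hab hb h
    exact hne a b hab hb (mul_right_cancel (h.trans (hsq (ee g w b)).symm))
  have hs₁1 : s₁ ≠ 1 := fun h => hw (haniso w (hs₁.trans h))
  have hs₂1 : s₂ ≠ 1 := fun h =>
    mul_ne_one 0 1 (by norm_num) (by norm_num) (haniso _ (hs₂.trans h))
  have hs₃1 : s₃ ≠ 1 := fun h =>
    mul_ne_one 0 2 (by norm_num) (by norm_num) (haniso _ (hs₃.trans h))
  have v12 : Q.sq (ee g w 1 * ee g w 2) = s₂ := V2a 1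
  have v012 : Q.sq (ee g w 0 * ee g w 1 * ee g w 2) = s₂ := by
    have hD := prod_range_five g w hg5 hfix
    simp only [Finset.prod_range_succ, Finset.prod_range_zero, one_mul] at hD
    have h34 : ee g w 0 * ee g w 1 * ee g w 2 = ee g w 3 * ee g w 4 := by
      have h' : (ee g w 0 * ee g w 1 * ee g w 2) * (ee g w 3 * ee g w 4) = 1 := by
        rw [← mul_assoc]; exact hD
      exact mul_right_cancel (h'.trans (hsq _).symm)
    rw [h34]; exact V2a 3
  have seven : ∀ a b : T, a ≠ 1 → b ≠ 1 → (s₁ = a ∨ s₁ = b) → (s₂ = a ∨ s₂ = b) →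
      (s₃ = a ∨ s₃ = b) → False := by
    intro a b ha hb h1 h2 h3
    refine hK Q (ee g w 0) (ee g w 1) (ee g w 2) a b ha hb ?_
    rintro x (hx | hx | hx | hx | hx | hx | hx)
    · rw [hx, V1]; exact h1
    · rw [hx, V1]; exact h1
    · rw [hx, V1]; exact h1
    · rw [hx, hs₂]; exact h2
    · rw [hx, hs₃]; exact h3
    · rw [hx, v12]; exact h2
    · rw [hx, v012]; exact h2
  have h12 : s₁ ≠ s₂ := fun h =>
    seven s₁ s₃ hs₁1 hs₃1 (Or.inl rfl) (Or.inl h.symm) (Or.inr rfl)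
  have h13 : s₁ ≠ s₃ := fun h =>
    seven s₁ s₂ hs₁1 hs₂1 (Or.inl rfl) (Or.inr rfl) (Or.inl h.symm)
  have h23 : s₂ ≠ s₃ := fun h =>
    seven s₁ s₂ hs₁1 hs₂1 (Or.inl rfl) (Or.inr rfl) (Or.inr h.symm)
  have sq1 : Q.sq 1 = 1 := qd_sq_one Q
  -- family 1
  have S1 : ∀ x, Q.sq x = s₁ → ∃ n, x = ee g w n := by
    intro x hx
    rcases hcases x with rfl | ⟨n, rfl | rfl | rfl⟩
    · exact absurd (hx.symm.trans sq1) hs₁1
    · exact ⟨n, rfl⟩
    · exact absurd (hx.symm.trans (V2a n)) h12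
    · exact absurd (hx.symm.trans (V2b n)) h13
  -- adjacency
  have Adj : ∀ a c, Q.sq (ee g w a * ee g w c) = s₂ →
      ee g w c = ee g w (a + 1) ∨ ee g w c = ee g w (a + 4) := by
    intro a c h
    obtain ⟨k, hk5, hk⟩ : ∃ k, k < 5 ∧ ee g w c = ee g w (a + k) :=
      ⟨(c + 4 * a) % 5, Nat.mod_lt _ (by norm_num), hper (by omega)⟩
    rw [hk, V2 a k] at h
    interval_cases k
    · rw [hsq] at h; exact absurd (h.symm.trans sq1) hs₂1
    · left; exact hk
    · exact absurd (h.symm.trans hs₃) h23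
    · have h3 : ee g w 0 * ee g w 3 = ee g w 3 * ee g w (3 + 2) := by
        rw [mul_comm, hper (a := 3 + 2) (b := 0) (by norm_num)]
      rw [h3, V2b 3] at h
      exact absurd h.symm h23
    · right; exact hk
  have G1 : ∀ γ ∈ Γ, ∀ n, ∃ m, γ (ee g w n) = ee g w m := by
    intro γ hγ n
    exact S1 _ ((hΓ γ hγ _).trans (V1 n))
  have G2 : ∀ γ ∈ Γ, ∀ n m, γ (ee g w n) = ee g w m →
      γ (ee g w (n + 1)) = ee g w (m + 1) ∨ γ (ee g w (n + 1)) = ee g w (m + 4) := by
    intro γ hγ n m hm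
    obtain ⟨c, hc⟩ := G1 γ hγ (n + 1)
    rw [hc]
    apply Adj
    rw [← hm, ← hc, ← map_mul, hΓ γ hγ]
    exact V2a n
  have step : ∀ δ ∈ Γ, ∀ n, δ (ee g w n) = ee g w n → δ (ee g w (n + 1)) = ee g w (n + 1) →
      δ (ee g w (n + 2)) = ee g w (n + 2) := by
    intro δ hδ n h0 h1
    rcases G2 δ hδ (n + 1) (n + 1) h1 with h | h
    · exact h
    · exfalso
      have h' : δ (ee g w (n + 2)) = δ (ee g w n) := by
        rw [h0]; exact h.trans (hper (by omega))
      have h'' : ee g w (n + 2) = ee g w n := δ.injective h'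
      have e1 : ee g w (n + 2) = (g ^ n) (ee g w 2) := ee_add g w n 2
      have e2 : ee g w n = (g ^ n) (ee g w 0) := by rw [← ee_add, add_zero]
      rw [e1, e2] at h''
      exact hne 0 2 (by norm_num) (by norm_num) ((g ^ n).injective h'').symm
  have fixall : ∀ δ ∈ Γ, δ (ee g w 0) = ee g w 0 → δ (ee g w 1) = ee g w 1 → δ = 1 := by
    intro δ hδ h0 h1
    have hall : ∀ n, δ (ee g w n) = ee g w n ∧ δ (ee g w (n + 1)) = ee g w (n + 1) := by
      intro n
      induction n with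
      | zero => exact ⟨h0, h1⟩
      | succ n ih => exact ⟨ih.2, step δ hδ n ih.1 ih.2⟩
    have hall2 : ∀ n, δ (ee g w (n + 2)) = ee g w (n + 2) := fun n => (hall (n + 1)).2
    apply MulEquiv.ext
    intro x
    rw [MulAut.one_apply]
    rcases hcases x with rfl | ⟨n, rfl | rfl | rfl⟩
    · exact map_one δ
    · exact (hall n).1
    · rw [map_mul, (hall n).1, (hall n).2]
    · rw [map_mul, (hall n).1, hall2 n]
  -- the injection
  let f : ↥Γ → W × W := fun γ => ((γ : MulAut W) (ee g w 0), (γ : MulAut W) (ee g w 1))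
  have hf : Function.Injective f := by
    intro γ γ' h
    have h0 : (γ : MulAut W) (ee g w 0) = (γ' : MulAut W) (ee g w 0) := congrArg Prod.fst h
    have h1 : (γ : MulAut W) (ee g w 1) = (γ' : MulAut W) (ee g w 1) := congrArg Prod.snd h
    have hδ : (γ : MulAut W)⁻¹ * (γ' : MulAut W) ∈ Γ := Γ.mul_mem (Γ.inv_mem γ.2) γ'.2
    have h2 := fixall _ hδ (by rw [MulAut.mul_apply, ← h0, MulAut.inv_apply_self])
      (by rw [MulAut.mul_apply, ← h1, MulAut.inv_apply_self])
    rw [inv_mul_eq_one] at h2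
    exact Subtype.ext h2
  let Tset : Finset (W × W) := Finset.image
    (fun q : Fin 5 × Bool => (ee g w q.1, ee g w (q.1 + (if q.2 then 1 else 4)))) Finset.univ
  have hTcard : Tset.card ≤ 10 := by
    refine (Finset.card_image_le).trans ?_
    simp
  have hmemT : ∀ γ : ↥Γ, f γ ∈ Tset := by
    intro γ
    obtain ⟨m, hm⟩ := G1 γ γ.2 0
    have hm' : (γ : MulAut W) (ee g w 0) = ee g w (m % 5) := hm.trans (hper (by omega))
    have hlt : m % 5 < 5 := Nat.mod_lt _ (by norm_num)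
    rcases G2 γ γ.2 0 (m % 5) hm' with h | h
    · refine Finset.mem_image.2 ⟨(⟨m % 5, hlt⟩, true), Finset.mem_univ _, ?_⟩
      exact Prod.ext hm'.symm h.symm
    · refine Finset.mem_image.2 ⟨(⟨m % 5, hlt⟩, false), Finset.mem_univ _, ?_⟩
      exact Prod.ext hm'.symm h.symm
  have hle : Nat.card ↥Γ ≤ Nat.card ↥Tset :=
    Nat.card_le_card_of_injective (fun γ => (⟨f γ, hmemT γ⟩ : ↥Tset))
      (fun a b h => hf (Subtype.ext_iff.1 h))
  calc Nat.card ↥Γ ≤ Nat.card ↥Tset := hle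
    _ = Tset.card := by simp
    _ ≤ 10 := hTcard

end core

/-- (QS5) a `sq`-preserving automorphism of order 5 (anisotropic case) bounds the group of
`sq`-preserving automorphisms by 10. -/
theorem lemFive (hO : LemOrbit.{u}) (hK : LemK.{u, v}) : LemFive.{u, v} := by
  intro W T _ _ _ _ Q hcard haniso Γ hΓ hex
  obtain ⟨g, hgΓ, hord⟩ := hex
  have hsq : ∀ w : W, w * w = 1 := Q.hW
  have hg5 : g ^ 5 = 1 := by rw [← hord]; exact pow_orderOf_eq_one g
  obtain ⟨U, hUinv, hUfix, hUne, hdvd⟩ := hO hsq g 5 (by norm_num) (by norm_num) hord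
  have hp : IsPGroup 2 W := fun x => ⟨1, by rw [pow_one, pow_two]; exact hsq x⟩
  have hpU : IsPGroup 2 U := hp.to_subgroup U
  obtain ⟨m, hm⟩ := hpU.exists_card_eq
  have hUW : Nat.card U ∣ Nat.card W := Subgroup.card_subgroup_dvd_card U
  have hWpos : 0 < Nat.card W := Nat.card_pos
  have hUle : Nat.card U ≤ Nat.card W := Nat.le_of_dvd hWpos hUW
  have hU1 : Nat.card U ≠ 1 := fun h => hUne (Subgroup.card_eq_one.1 h)
  have hm4 : m ≤ 4 := by
    by_contra hcon
    have : 2 ^ 5 ≤ 2 ^ m := Nat.pow_le_pow_right (by norm_num) (by omega)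
    omega
  have hm16 : Nat.card U = 16 := by
    rw [hm] at hdvd hU1 ⊢
    interval_cases m <;> simp_all
  have hUtop : U = ⊤ := Subgroup.eq_top_of_le_card U (by omega)
  have hfix : ∀ x : W, g x = x → x = 1 := fun x hx => hUfix x (by rw [hUtop]; trivial) hx
  have hWnt : Nontrivial W := by
    apply (Finite.one_lt_card_iff_nontrivial).1; omega
  obtain ⟨w, hw⟩ := exists_ne (1 : W)
  exact @five_core W { (inferInstance : Group W) with mul_comm := comm_of_mul_self hsq } g w T _ _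
    hK Q hcard haniso Γ hΓ hgΓ hg5 hfix hw

end Cfsg.Agent.Lib.Helper95.TI3
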